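/-
A member of a conjugation-closed family of subnormal subgroups normalizing the join of a subfamily.
-/
import Mathlib
import Cfsg.Agent.Lib.Subnormal.Join
import Cfsg.Agent.Lib.CoprimeAction.Sylow

set_option autoImplicit false

open scoped Pointwise

namespace CfsgLib.SolvableStructure

open CfsgLib.Subnormal

variable {G : Type*} [Group G]

theorem exists_normalizing_of_family [Finite G] (S S₀ : Set (Subgroup G))
    (hS : ∀ U ∈ S, U.IsSubnormal) (hconj : ∀ U ∈ S, ∀ g : G, MulAut.conj g • U ∈ S)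
    (h₀ : S₀ ⊂ S) :
    ∃ X ∈ S, X ∉ S₀ ∧ X ≤ Subgroup.normalizer ((sSup S₀ : Subgroup G) : Set G) := by
  obtain ⟨hsub, hne⟩ := h₀
  obtain ⟨X, hX, hX₀⟩ := Set.not_subset.mp hne
  let J : Subgroup G := sSup S₀
  by_cases hle : ∃ X ∈ S, X ∉ S₀ ∧ X ≤ J
  · obtain ⟨X, hX, hX₀, hXJ⟩ := hle
    exact ⟨X, hX, hX₀, hXJ.trans Subgroup.le_normalizer⟩
  push Not at hle
  by_cases hn : J.Normal
  · exact ⟨X, hX, hX₀, (Subgroup.normalizer_eq_top (H := J)).symm ▸ le_top⟩
  have hJ : J.IsSubnormal := isSubnormal_sSup fun U hU => hS U (hsub hU)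
  obtain ⟨g, hg, hgle⟩ := exists_conj_le_normalizer hJ hn
  obtain ⟨U, hU, hUg⟩ : ∃ U ∈ S₀, ¬ MulAut.conj g • U ≤ J := by
    by_contra hcon
    push Not at hcon
    refine hg ?_
    have h : J ≤ J.comap (MulAut.conj g).toMonoidHom :=
      sSup_le fun U hU => Subgroup.map_le_iff_le_comap.mp (hcon U hU)
    rw [← Subgroup.map_le_iff_le_comap] at h
    rw [mem_normalizer_iff_map_conj]
    exact Subgroup.eq_of_le_of_card_ge h
      (Subgroup.card_map_of_injective (MulAut.conj g).injective).ge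
  refine ⟨MulAut.conj g • U, hconj U (hsub hU) g, fun h => hUg (le_sSup h), ?_⟩
  exact (Subgroup.map_mono (le_sSup hU : U ≤ J)).trans hgle

theorem isSubnormal_map_equiv {H : Type*} [Group H] (e : G ≃* H) {A : Subgroup G}
    (h : A.IsSubnormal) : (A.map e.toMonoidHom).IsSubnormal :=
  h.map e.surjective

/-- The same, for a family of subgroups of `V` subnormal in `V`. -/
theorem exists_normalizing_of_family_in [Finite G] (V : Subgroup G) (S S₀ : Set (Subgroup G))
    (hSV : ∀ U ∈ S, U ≤ V) (hS : ∀ U ∈ S, (U.subgroupOf V).IsSubnormal)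
    (hconj : ∀ U ∈ S, ∀ v ∈ V, MulAut.conj v • U ∈ S)
    (h₀ : S₀ ⊂ S) :
    ∃ X ∈ S, X ∉ S₀ ∧ X ≤ Subgroup.normalizer ((sSup S₀ : Subgroup G) : Set G) := by
  have hm : ∀ U ∈ S, (U.subgroupOf V).map V.subtype = U := fun U hU =>
    Subgroup.map_subgroupOf_eq_of_le (hSV U hU)
  have hc : ∀ (v : V) (W : Subgroup V),
      (MulAut.conj v • W).map V.subtype = MulAut.conj (v : G) • W.map V.subtype :=
    CfsgLib.CoprimeAction.map_conj_subtype
  obtain ⟨X, hX, hX₀, hXn⟩ := exists_normalizing_of_family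
    {W : Subgroup V | W.map V.subtype ∈ S} {W : Subgroup V | W.map V.subtype ∈ S₀}
    (fun W hW => by
      have := hS _ hW
      rwa [Subgroup.subgroupOf, Subgroup.comap_map_eq_self_of_injective V.subtype_injective] at this)
    (fun W hW v => by
      show _ ∈ S
      rw [hc]
      exact hconj _ hW _ v.2)
    ⟨fun W hW => h₀.1 hW, fun hle => h₀.2 fun U hU => by
      have h1 := hle (show U.subgroupOf V ∈ {W : Subgroup V | W.map V.subtype ∈ S} by
        show _ ∈ S
        rwa [hm U hU])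
      rwa [Set.mem_setOf_eq, hm U hU] at h1⟩
  refine ⟨X.map V.subtype, hX, hX₀, ?_⟩
  have hJ : (sSup {W : Subgroup V | W.map V.subtype ∈ S₀}).map V.subtype = sSup S₀ := by
    refine le_antisymm ?_ (sSup_le fun U hU => ?_)
    · rw [Subgroup.map_le_iff_le_comap]
      exact sSup_le fun W hW => Subgroup.map_le_iff_le_comap.mp (le_sSup hW)
    · rw [← hm U (h₀.1 hU)]
      refine Subgroup.map_mono (le_sSup ?_)
      show _ ∈ S₀
      rwa [hm U (h₀.1 hU)]
  rw [← hJ]
  refine (Subgroup.map_mono hXn).trans (Subgroup.le_normalizer_map _)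

end CfsgLib.SolvableStructure
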