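/-
System normalizers versus chief factors and Carter subgroups (P. Hall, R. W. Carter).
-/
import Mathlib
import Cfsg.Agent.Lib.SolvableStructure.ComplementSystem
import Cfsg.Agent.Lib.Cores.Carter

set_option autoImplicit false
set_option linter.style.haveILetI false
set_option linter.unusedVariables false

open scoped Pointwise commutatorElement

namespace CfsgLib.SolvableStructure

open CfsgLib.Hall CfsgLib.Cores

variable {G : Type*} [Group G] [Finite G]

theorem isPGroup_of_isPiNum {p : ℕ} {H : Type*} [Group H] [Finite H]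
    (h : IsPiNum {p} (Nat.card H)) : IsPGroup p H :=
  IsPGroup.of_card (Nat.eq_prime_pow_of_unique_prime_dvd Nat.card_pos.ne' fun {q} hq hd => h q hq hd)

omit [Finite G] in
theorem disjoint_of_isPiNum {π : Set ℕ} {H K : Subgroup G} (hH : IsPiNum π (Nat.card H))
    (hK : IsPiNum πᶜ (Nat.card K)) : H ⊓ K = ⊥ :=
  Subgroup.eq_bot_of_card_eq _ (Nat.eq_one_of_dvd_coprimes (hH.coprime hK)
    (Subgroup.card_dvd_of_le inf_le_left) (Subgroup.card_dvd_of_le inf_le_right))

theorem relIndex_sup_normal (U F : Subgroup G) [F.Normal] :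
    U.relIndex (U ⊔ F) = U.relIndex F := by
  have h2 := Subgroup.relIndex_mul_relIndex (U ⊓ F) U (U ⊔ F) inf_le_left le_sup_left
  rw [← Subgroup.relIndex_mul_relIndex (U ⊓ F) F (U ⊔ F) inf_le_right le_sup_right,
    Subgroup.inf_relIndex_right, Subgroup.inf_relIndex_left, Subgroup.relIndex_sup_right,
    mul_comm] at h2
  rw [mul_comm, mul_comm (F.relIndex U)] at h2
  exact Nat.eq_of_mul_eq_mul_right
    (Nat.pos_of_ne_zero (Subgroup.index_ne_zero_of_finite (H := F.subgroupOf U))) h2

/-- In a nilpotent group a Hall `p'`-subgroup is the `p'`-core. -/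
theorem eq_pPrimeCore_of_isPiHall [Group.IsNilpotent G] {p : ℕ} (hp : p.Prime) {H : Subgroup G}
    (hH : Cfsg.IsPiHall ({p}ᶜ : Set ℕ) H) : H = Cfsg.pPrimeCore p G := by
  haveI := Fact.mk hp
  have hQ : Cfsg.IsPiHall ({p}ᶜ : Set ℕ) (Cfsg.pPrimeCore p G) := by
    refine isPiHall_iff.mpr ⟨fun q _ hd hqp => ?_, fun q hq hd hqp => ?_⟩
    · obtain rfl : q = p := hqp
      exact not_dvd_card_pPrimeCore hd
    · haveI := Fact.mk hq
      obtain ⟨S⟩ := (Sylow.nonempty : Nonempty (Sylow q G))
      have hle : (S : Subgroup G) ≤ Cfsg.pPrimeCore p G := by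
        refine le_pPrimeCore ?_
        rw [S.card_eq_multiplicity]
        exact Nat.Coprime.pow_left _ ((Nat.coprime_primes hq hp).2 hqp)
      exact S.not_dvd_index (hd.trans (Subgroup.index_dvd_of_le hle))
  obtain ⟨g, hg⟩ := isPiHall_isConj hQ hH
  rw [← hg]
  exact CfsgLib.CoprimeAction.conj_smul_eq_self.mpr
    (Subgroup.normalizer_eq_top (H := Cfsg.pPrimeCore p G) ▸ Subgroup.mem_top g)

variable {K : Nat.Primes → Subgroup G}

omit [Finite G] in
theorem isComplementSystem_conj (hK : Cfsg.IsComplementSystem K) (g : G) :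
    Cfsg.IsComplementSystem (fun p => MulAut.conj g • K p) := fun p =>
  (index_conj_smul g (K p)).trans (hK p)

omit [Finite G] in
theorem systemNormalizer_conj (K : Nat.Primes → Subgroup G) (g : G) :
    Cfsg.systemNormalizer (fun p => MulAut.conj g • K p) =
      MulAut.conj g • Cfsg.systemNormalizer K := by
  have key : ∀ (p : Nat.Primes), Subgroup.normalizer ((MulAut.conj g • K p : Subgroup G) : Set G) =
      MulAut.conj g • Subgroup.normalizer (K p : Set G) := fun p =>
    (Subgroup.map_equiv_normalizer_eq (K p) (MulAut.conj g)).symm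
  ext x
  simp only [Cfsg.systemNormalizer, key, Subgroup.mem_iInf,
    Subgroup.mem_pointwise_smul_iff_inv_smul_mem]

/-! ### Eccentric chief factors -/

/-- The system normalizer meets a non-central minimal normal subgroup trivially. -/
theorem inf_systemNormalizer_eq_bot [Group.IsSolvable G] {N : Subgroup G} [N.Normal]
    (hN : N ≠ ⊥) (hmin : ∀ M : Subgroup G, M.Normal → M ≤ N → M = ⊥ ∨ M = N)
    (hnc : ¬ N ≤ Subgroup.center G) (hK : Cfsg.IsComplementSystem K) :
    N ⊓ Cfsg.systemNormalizer K = ⊥ := by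
  haveI := isMulCommutative_of_minimal_normal_of_isSolvable hN hmin
  obtain ⟨p, hp, hpow⟩ := exists_prime_pow_eq_one_of_minimal_normal hN hmin
  haveI := Fact.mk hp
  have hNp : IsPGroup p N := fun x => ⟨1, Subtype.ext (by simpa using hpow x x.2)⟩
  let C := Subgroup.centralizer (N : Set G)
  haveI hCn : C.Normal := inferInstance
  have hC : C ≠ ⊤ := fun h => hnc fun x hx => Subgroup.centralizer_eq_top_iff_subset.mp h hx
  haveI : Nontrivial (G ⧸ C) := QuotientGroup.nontrivial_iff.mpr hC
  obtain ⟨r, hr, hrne⟩ := exists_pCore_ne_bot (G := G ⧸ C)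
  haveI := Fact.mk hr
  let M : Subgroup G := (Cfsg.pCore r (G ⧸ C)).comap (QuotientGroup.mk' C)
  have hNM : N ⊓ Subgroup.centralizer (M : Set G) = ⊥ := by
    refine (hmin _ inferInstance inf_le_left).resolve_right fun h => hrne ?_
    rw [eq_bot_iff]
    intro y hy
    obtain ⟨m, rfl⟩ := QuotientGroup.mk'_surjective C y
    exact Subgroup.mem_bot.mpr ((QuotientGroup.eq_one_iff m).mpr
      (Subgroup.le_centralizer_iff.mp (inf_eq_left.mp h) (show m ∈ M from hy)))
  have hrp : r ≠ p := by
    rintro rfl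
    let φ : G ⧸ C →* MulAut N := QuotientGroup.lift C (MulAut.conjNormal (H := N)) fun c hc =>
      MonoidHom.mem_ker.mpr <| MulEquiv.ext fun n => Subtype.ext <| by
        rw [MulAut.conjNormal_apply]
        simp [← Subgroup.mem_centralizer_iff.mp hc n n.2]
    letI : MulAction (Cfsg.pCore r (G ⧸ C)) N :=
      MulAction.compHom N (φ.comp (Cfsg.pCore r (G ⧸ C)).subtype)
    have hdvd : r ∣ Nat.card N := hNp.card_eq_or_dvd.resolve_left fun h =>
      hN (Subgroup.card_eq_one.1 h)
    obtain ⟨b, hb, hb1⟩ := (isPGroup_pCore r (G ⧸ C)).exists_fixed_point_of_prime_dvd_card_of_fixed_point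
      N hdvd (a := (1 : N)) (fun z => map_one (φ z))
    have hm : (b : G) ∈ N ⊓ Subgroup.centralizer (M : Set G) := by
      refine ⟨b.2, Subgroup.mem_centralizer_iff.mpr fun m hm => ?_⟩
      have h2 : m * (b : G) * m⁻¹ = b := congrArg Subtype.val (hb ⟨QuotientGroup.mk' C m, hm⟩)
      exact mul_inv_eq_iff_eq_mul.1 h2
    rw [hNM, Subgroup.mem_bot] at hm
    exact hb1 (Subtype.ext hm.symm)
  let pp : Nat.Primes := ⟨p, hp⟩
  have hKp := isPiHall_of_index_eq hp (hK pp)
  have hMK : M ≤ K pp ⊔ C := by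
    have hU : Cfsg.IsPiSubgroup ({p}ᶜ : Set ℕ) (Cfsg.pCore r (G ⧸ C)) := by
      obtain ⟨k, hk⟩ := IsPGroup.iff_card.mp (isPGroup_pCore r (G ⧸ C))
      intro q hq hd hqp
      rw [hk] at hd
      exact hrp (((Nat.prime_dvd_prime_iff_eq hq hr).mp (hq.dvd_of_dvd_pow hd)).symm.trans hqp)
    obtain ⟨g, hg⟩ :=
      exists_le_conj_isPiHall (isPiHall_map (QuotientGroup.mk'_surjective C) hKp) hU
    intro m hm
    have h1 : MulAut.conj g * 1 = MulAut.conj g := mul_one _
    have h2 : MulAut.conj g • Cfsg.pCore r (G ⧸ C) = Cfsg.pCore r (G ⧸ C) :=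
      CfsgLib.CoprimeAction.conj_smul_eq_self.mpr
        (Subgroup.normalizer_eq_top (H := Cfsg.pCore r (G ⧸ C)) ▸ Subgroup.mem_top g)
    rw [← h2, Subgroup.pointwise_smul_le_pointwise_smul_iff] at hg
    obtain ⟨k, hk, hke⟩ := Subgroup.mem_map.mp (hg (show QuotientGroup.mk' C m ∈ _ from hm))
    simpa using Subgroup.mul_mem_sup hk (QuotientGroup.eq.mp hke)
  rw [eq_bot_iff]
  rintro x ⟨hxN, hxD⟩
  rw [← hNM]
  refine ⟨hxN, ?_⟩
  have hdis : K pp ⊓ N = ⊥ := by
    refine disjoint_of_isPiNum (π := ({p}ᶜ : Set ℕ)) hKp.1 fun q hq hd => ?_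
    obtain ⟨k, hk⟩ := IsPGroup.iff_card.mp hNp
    rw [hk] at hd
    simpa using (Nat.prime_dvd_prime_iff_eq hq hp).mp (hq.dvd_of_dvd_pow hd)
  have hKx : K pp ⊔ C ≤ Subgroup.centralizer {x} := by
    refine sup_le (fun k hk => ?_) (fun c hc => ?_)
    · rw [Subgroup.mem_centralizer_singleton_iff]
      have h1 : x * k * x⁻¹ * k⁻¹ ∈ K pp ⊓ N := by
        refine ⟨(K pp).mul_mem (CfsgLib.CoprimeAction.conj_mem (Subgroup.mem_iInf.mp hxD pp) hk)
          ((K pp).inv_mem hk), ?_⟩
        have := N.mul_mem hxN (Subgroup.Normal.conj_mem inferInstance _ (N.inv_mem hxN) k)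
        simpa [mul_assoc] using this
      rw [hdis, Subgroup.mem_bot, mul_inv_eq_one, mul_inv_eq_iff_eq_mul] at h1
      exact h1.symm
    · rw [Subgroup.mem_centralizer_singleton_iff]
      exact (Subgroup.mem_centralizer_iff.mp hc x hxN).symm
  exact Subgroup.mem_centralizer_iff.mpr fun m hm =>
    Subgroup.mem_centralizer_singleton_iff.mp (hKx (hMK hm))

/-! ### Carter subgroups -/

/-- The image of a Carter subgroup in a quotient is a Carter subgroup. -/
theorem isCarterSubgroup_map [Group.IsSolvable G] {C : Subgroup G}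
    (hC : CfsgLib.Cores.IsCarterSubgroup C) (N : Subgroup G) [N.Normal] :
    CfsgLib.Cores.IsCarterSubgroup (C.map (QuotientGroup.mk' N)) := by
  haveI := hC.1
  have hconj : CarterConjBelow G := fun X _ C D hC hD => isCarterSubgroup_isConj hC hD
  refine ⟨isNilpotent_map C _, Subgroup.comap_injective (QuotientGroup.mk'_surjective N) ?_⟩
  rw [Subgroup.comap_normalizer_eq_of_surjective _ (QuotientGroup.mk'_surjective N),
    Subgroup.comap_map_eq, QuotientGroup.ker_mk']
  exact normalizer_eq_of_ge hconj hC le_sup_left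

/-- A complement system reduces into a subgroup. -/
def Reduces (K : Nat.Primes → Subgroup G) (C : Subgroup G) : Prop :=
  ∀ p : Nat.Primes, IsPiNum {(p : ℕ)} ((K p).relIndex C)

omit [Finite G] in
theorem Reduces.map {C : Subgroup G} (h : Reduces K C) {H : Type*} [Group H] (f : G →* H) :
    Reduces (fun p => (K p).map f) (C.map f) := fun p => by
  refine (h p).of_dvd (dvd_trans ?_ (Subgroup.index_map_dvd ((K p).subgroupOf C)
    (f.subgroupMap_surjective C)))
  refine Subgroup.index_dvd_of_le ?_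
  rintro _ ⟨x, hx, rfl⟩
  exact Subgroup.mem_map_of_mem f hx

theorem Reduces.isPiHall {C : Subgroup G} (h : Reduces K C) (hK : Cfsg.IsComplementSystem K)
    (p : Nat.Primes) : Cfsg.IsPiHall ({(p : ℕ)}ᶜ : Set ℕ) ((K p).subgroupOf C) := by
  refine isPiHall_iff.mpr ⟨(isPiHall_iff.mp (isPiHall_of_index_eq p.2 (hK p))).1.of_dvd ?_, ?_⟩
  · refine dvd_trans (dvd_of_eq ?_) (Subgroup.card_dvd_of_le (inf_le_left : K p ⊓ C ≤ K p))
    rw [← Subgroup.inf_subgroupOf_right]
    exact Nat.card_congr (Subgroup.subgroupOfEquivOfLe inf_le_right).toEquiv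
  · rw [compl_compl]
    exact h p

/-- A nilpotent subgroup into which a system reduces normalizes its intersection with each member. -/
theorem Reduces.le_normalizer_inf {C : Subgroup G} (h : Reduces K C)
    (hK : Cfsg.IsComplementSystem K) (hC : Group.IsNilpotent C) (p : Nat.Primes) :
    C ≤ Subgroup.normalizer ((K p ⊓ C : Subgroup G) : Set G) := by
  haveI := hC
  rw [← Subgroup.normal_subgroupOf_iff_le_normalizer inf_le_right, Subgroup.inf_subgroupOf_right,
    eq_pPrimeCore_of_isPiHall p.2 (h.isPiHall hK p)]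
  infer_instance

theorem exists_reduces [Group.IsSolvable G] {C : Subgroup G} (hC : Group.IsNilpotent C) :
    ∃ K : Nat.Primes → Subgroup G, Cfsg.IsComplementSystem K ∧ Reduces K C := by
  haveI := hC
  have h : ∀ p : Nat.Primes, ∃ H : Subgroup G, H.index = (p : ℕ) ^ (Nat.card G).factorization p ∧
      IsPiNum {(p : ℕ)} (H.relIndex C) := by
    intro p
    obtain ⟨Q, hQ⟩ := exists_isPiHall (G := C) ({(p : ℕ)}ᶜ : Set ℕ)
    have hQ' : Cfsg.IsPiSubgroup ({(p : ℕ)}ᶜ : Set ℕ) (Q.map C.subtype) := by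
      rw [isPiSubgroup_iff, Subgroup.card_map_of_injective C.subtype_injective]
      exact hQ.1
    obtain ⟨H, hH, hle⟩ := exists_isPiHall_ge hQ'
    refine ⟨H, index_eq_of_isPiHall p.2 hH, ?_⟩
    have h2 := (isPiHall_iff.mp hQ).2
    rw [compl_compl] at h2
    exact h2.of_dvd (Subgroup.index_dvd_of_le fun x hx => hle (Subgroup.mem_map_of_mem _ hx))
  choose K hK1 hK2 using h
  exact ⟨K, hK1, hK2⟩

/-- A subgroup `Z` that is a `p`-group, normalized by a Carter subgroup `C` and centralizing a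
normal `p'`-part of `C` lies in `C`. -/
theorem le_of_carter {C S Z : Subgroup G} {p : ℕ} [hp : Fact p.Prime]
    (hC : CfsgLib.Cores.IsCarterSubgroup C) (hS : S ≤ C)
    (hCS : C ≤ Subgroup.normalizer (S : Set G)) (hidx : IsPiNum {p} (S.relIndex C))
    (hCZ : C ≤ Subgroup.normalizer (Z : Set G)) (hZp : IsPGroup p Z)
    (hZS : Z ≤ Subgroup.centralizer (S : Set G)) : Z ≤ C := by
  let W := C ⊔ Z
  haveI : (S.subgroupOf W).Normal :=
    (Subgroup.normal_subgroupOf_iff_le_normalizer (hS.trans le_sup_left)).mpr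
      (sup_le hCS (hZS.trans (Subgroup.centralizer_le_normalizer _)))
  haveI : (Z.subgroupOf W).Normal :=
    (Subgroup.normal_subgroupOf_iff_le_normalizer le_sup_right).mpr
      (sup_le hCZ Subgroup.le_normalizer)
  let q := QuotientGroup.mk' (S.subgroupOf W)
  have hq : Function.Surjective q := QuotientGroup.mk'_surjective _
  have hA : IsPGroup p ((C.subgroupOf W).map q) := by
    refine isPGroup_of_isPiNum ?_
    rw [← Subgroup.relIndex_ker (K := C.subgroupOf W), QuotientGroup.ker_mk',
      Subgroup.relIndex_subgroupOf le_sup_left]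
    exact hidx
  haveI : ((Z.subgroupOf W).map q).Normal := Subgroup.Normal.map inferInstance q hq
  have hB : IsPGroup p ((Z.subgroupOf W).map q) :=
    (hZp.comap_of_injective W.subtype W.subtype_injective).map q
  have htop : (C.subgroupOf W).map q ⊔ (Z.subgroupOf W).map q = ⊤ := by
    rw [← Subgroup.map_sup, ← Subgroup.subgroupOf_sup le_sup_left le_sup_right,
      Subgroup.subgroupOf_self, Subgroup.map_top_of_surjective q hq]
  have hQ : IsPGroup p (W ⧸ S.subgroupOf W) :=
    (htop ▸ hA.to_sup_of_normal_right hB : IsPGroup p (⊤ : Subgroup (W ⧸ S.subgroupOf W))).of_equiv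
      Subgroup.topEquiv
  haveI : Group.IsNilpotent (W ⧸ S.subgroupOf W) := hQ.isNilpotent
  have hker : q.ker ≤ C.subgroupOf W := by
    rw [QuotientGroup.ker_mk']
    exact fun x hx => hS hx
  have heq : (C.subgroupOf W).map q = ⊤ := by
    refine eq_top_of_normalizer_eq_of_isNilpotent (Subgroup.comap_injective hq ?_)
    rw [Subgroup.comap_normalizer_eq_of_surjective _ hq, Subgroup.comap_map_eq_self hker]
    exact (hC.subgroupOf (le_sup_left : C ≤ W)).2
  have h : C.subgroupOf W = ⊤ := by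
    rw [← Subgroup.comap_map_eq_self hker, heq, Subgroup.comap_top]
  exact le_sup_right.trans (Subgroup.subgroupOf_eq_top.mp h)

universe u

theorem systemNormalizer_le_of_reduces_aux : ∀ (n : ℕ) (G : Type u) [Group G] [Finite G]
    [Group.IsSolvable G] (C : Subgroup G) (K : Nat.Primes → Subgroup G),
    Nat.card G = n → CfsgLib.Cores.IsCarterSubgroup C → Cfsg.IsComplementSystem K →
    Reduces K C → Cfsg.systemNormalizer K ≤ C := by
  intro n
  induction n using Nat.strong_induction_on with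
  | _ n ih =>
    intro G _ _ _ C K hn hC hK hR
    rcases subsingleton_or_nontrivial G with hs | hnt
    · exact fun x _ => Subsingleton.elim (1 : G) x ▸ C.one_mem
    obtain ⟨N, hNn, -, hN, hmin⟩ := exists_minimal_normal_le (G := G) (K := ⊤) top_ne_bot
    haveI := hNn
    haveI := isMulCommutative_of_minimal_normal_of_isSolvable hN hmin
    obtain ⟨p, hp, hpow⟩ := exists_prime_pow_eq_one_of_minimal_normal hN hmin
    haveI := Fact.mk hp
    have hNp : IsPGroup p N := fun x => ⟨1, Subtype.ext (by simpa using hpow x x.2)⟩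
    have hlt : Nat.card (G ⧸ N) < n := by
      rw [← Subgroup.index, ← hn, ← Subgroup.index_mul_card N]
      exact lt_mul_of_one_lt_right (Nat.pos_of_ne_zero N.index_ne_zero_of_finite)
        ((Subgroup.one_lt_card_iff_ne_bot N).2 hN)
    haveI : Group.IsSolvable (G ⧸ N) :=
      Group.isSolvable_of_surjective (QuotientGroup.mk'_surjective N)
    have hquot := ih _ hlt (G ⧸ N) (C.map (QuotientGroup.mk' N))
      (fun r => (K r).map (QuotientGroup.mk' N)) rfl (isCarterSubgroup_map hC N)
      (isComplementSystem_map hK N) (hR.map _)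
    rw [systemNormalizer_map hK N] at hquot
    intro d hd
    obtain ⟨c, hc, hcd⟩ := Subgroup.mem_map.mp (hquot (Subgroup.mem_map_of_mem _ hd))
    have hn' : c⁻¹ * d ∈ N := QuotientGroup.eq.mp hcd
    let pp : Nat.Primes := ⟨p, hp⟩
    have hS := hR.le_normalizer_inf hK hC.1 pp
    have hdis : K pp ⊓ N = ⊥ := by
      refine disjoint_of_isPiNum (π := ({p}ᶜ : Set ℕ)) (isPiHall_of_index_eq hp (hK pp)).1
        fun q hq hd => ?_
      obtain ⟨k, hk⟩ := IsPGroup.iff_card.mp hNp
      rw [hk] at hd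
      simpa using (Nat.prime_dvd_prime_iff_eq hq hp).mp (hq.dvd_of_dvd_pow hd)
    have hmem : c⁻¹ * d ∈ N ⊓ Subgroup.centralizer ((K pp ⊓ C : Subgroup G) : Set G) := by
      refine ⟨hn', Subgroup.mem_centralizer_iff.mpr fun s hs => ?_⟩
      have h1 : d * s * d⁻¹ ∈ K pp :=
        CfsgLib.CoprimeAction.conj_mem (Subgroup.mem_iInf.mp hd pp) hs.1
      have h2 : c * s * c⁻¹ ∈ K pp := (CfsgLib.CoprimeAction.conj_mem (hS hc) hs).1
      have h3 : (d * s * d⁻¹) * (c * s * c⁻¹)⁻¹ ∈ K pp ⊓ N := by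
        refine ⟨(K pp).mul_mem h1 ((K pp).inv_mem h2), ?_⟩
        refine (QuotientGroup.eq_one_iff _).mp ?_
        have he : ((c : G) : G ⧸ N) = (d : G ⧸ N) := hcd
        simp [he]
      rw [hdis, Subgroup.mem_bot, mul_inv_eq_one] at h3
      calc s * (c⁻¹ * d) = c⁻¹ * (c * s * c⁻¹) * d := by group
        _ = c⁻¹ * (d * s * d⁻¹) * d := by rw [h3]
        _ = c⁻¹ * d * s := by group
    have hle : N ⊓ Subgroup.centralizer ((K pp ⊓ C : Subgroup G) : Set G) ≤ C := by
      refine le_of_carter (p := p) hC inf_le_right hS ?_ ?_ (hNp.to_le inf_le_left) inf_le_right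
      · rw [Subgroup.inf_relIndex_right]
        exact hR pp
      · refine fun x hx => CfsgLib.CoprimeAction.mem_normalizer_of_conj_mem fun y hy =>
          ⟨Subgroup.Normal.conj_mem inferInstance _ hy.1 x,
            Subgroup.mem_centralizer_iff.mpr fun s hs => ?_⟩
        have hs' := CfsgLib.CoprimeAction.conj_mem (hS (C.inv_mem hx)) hs
        rw [inv_inv] at hs'
        calc s * (x * y * x⁻¹) = x * ((x⁻¹ * s * x) * y) * x⁻¹ := by group
          _ = x * (y * (x⁻¹ * s * x)) * x⁻¹ := by rw [Subgroup.mem_centralizer_iff.mp hy.2 _ hs']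
          _ = x * y * x⁻¹ * s := by group
    simpa using C.mul_mem hc (hle hmem)

/-- A Carter subgroup contains the normalizer of each system reducing into it. -/
theorem systemNormalizer_le_of_reduces {G : Type u} [Group G] [Finite G] [Group.IsSolvable G]
    {C : Subgroup G} {K : Nat.Primes → Subgroup G} (hC : CfsgLib.Cores.IsCarterSubgroup C)
    (hK : Cfsg.IsComplementSystem K) (hR : Reduces K C) : Cfsg.systemNormalizer K ≤ C :=
  systemNormalizer_le_of_reduces_aux _ G C K rfl hC hK hR

/-- In nilpotent length two a Carter subgroup equals the normalizer of a system reducing into it. -/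
theorem systemNormalizer_eq_of_reduces [Group.IsSolvable G] {F : Subgroup G} [F.Normal]
    (hF : Group.IsNilpotent F) (hGF : Group.IsNilpotent (G ⧸ F)) {C : Subgroup G}
    (hC : CfsgLib.Cores.IsCarterSubgroup C)
    (hK : Cfsg.IsComplementSystem K) (hR : Reduces K C) : Cfsg.systemNormalizer K = C := by
  refine le_antisymm (systemNormalizer_le_of_reduces hC hK hR) (le_iInf fun p => ?_)
  haveI := hF
  haveI := hGF
  have hKp := isPiHall_of_index_eq p.2 (hK p)
  haveI hTn : (K p ⊓ F).Normal := by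
    have h1 := eq_pPrimeCore_of_isPiHall p.2 (isPiHall_inf_subgroupOf (A := F) hKp)
    rw [← Subgroup.map_subgroupOf_eq_of_le (inf_le_right : K p ⊓ F ≤ F), h1]
    infer_instance
  have hCF : (C.map (QuotientGroup.mk' F)) = ⊤ :=
    eq_top_of_normalizer_eq_of_isNilpotent (isCarterSubgroup_map hC F).2
  have hU : K p ⊓ C ⊔ K p ⊓ F = K p := by
    have hle : K p ⊓ C ⊔ K p ⊓ F ≤ K p := sup_le inf_le_left inf_le_left
    refine eq_of_isPiHall_le (π := ({(p : ℕ)}ᶜ : Set ℕ)) (isPiHall_iff.mpr
      ⟨(isPiHall_iff.mp hKp).1.of_dvd (Subgroup.card_dvd_of_le hle), ?_⟩) hKp.1 hle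
    rw [compl_compl]
    set U := K p ⊓ C ⊔ K p ⊓ F
    rw [← Subgroup.relIndex_mul_index (le_sup_left : U ≤ U ⊔ F), relIndex_sup_normal]
    refine IsPiNum.mul ?_ ?_
    · have h := (isPiHall_iff.mp (isPiHall_inf_subgroupOf (A := F) hKp)).2
      rw [compl_compl] at h
      exact h.of_dvd (Subgroup.relIndex_dvd_of_le_left F le_sup_right)
    · let φ : C →* G ⧸ F := (QuotientGroup.mk' F).comp C.subtype
      have hφ : Function.Surjective φ := by
        intro y
        obtain ⟨c, hc, rfl⟩ := Subgroup.mem_map.mp (hCF ▸ Subgroup.mem_top y)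
        exact ⟨⟨c, hc⟩, rfl⟩
      refine (hR p).of_dvd (dvd_trans ?_ (Subgroup.index_map_dvd ((K p).subgroupOf C) hφ))
      rw [← Subgroup.index_comap_of_surjective _ hφ]
      have hc : (U ⊔ F).map (QuotientGroup.mk' F) ≥ ((K p).subgroupOf C).map φ := by
        rintro _ ⟨x, hx, rfl⟩
        exact Subgroup.mem_map_of_mem _ (Subgroup.mem_sup_left (Subgroup.mem_sup_left ⟨hx, x.2⟩))
      refine dvd_trans ?_ (Subgroup.index_dvd_of_le (Subgroup.comap_mono hc))
      rw [Subgroup.index_comap_of_surjective _ hφ, Subgroup.index_map,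
        QuotientGroup.ker_mk', QuotientGroup.range_mk', Subgroup.index_top, mul_one,
        sup_eq_left.2 (le_sup_right : F ≤ U ⊔ F)]
  calc C ≤ Subgroup.normalizer ((K p ⊓ C : Subgroup G) : Set G) ⊓
        Subgroup.normalizer ((K p ⊓ F : Subgroup G) : Set G) :=
      le_inf (hR.le_normalizer_inf hK hC.1 p) (by rw [Subgroup.normalizer_eq_top]; exact le_top)
    _ ≤ Subgroup.normalizer ((K p ⊓ C ⊔ K p ⊓ F : Subgroup G) : Set G) := fun x hx =>
      CfsgLib.Subnormal.le_normalizer_sup (Subgroup.zpowers_le.2 hx.1) (Subgroup.zpowers_le.2 hx.2)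
        (Subgroup.mem_zpowers x)
    _ = _ := by rw [hU]

end CfsgLib.SolvableStructure
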